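import Cfsg.Agent.Base
import Cfsg.Agent.Lib.Suz.Huppert
import Cfsg.Agent.Lib.PF.H20_Field

/-! Linear groups transitive on nonzero vectors up to sign with an abelian self-centralizing normal
subgroup are one-dimensional semilinear. -/

set_option autoImplicit false

open Subgroup MulAction

namespace H4

universe v

theorem two_mul_le_pow {p k : ℕ} (hp : 2 ≤ p) : 2 * k ≤ p ^ k := by
  refine le_trans ?_ (Nat.pow_le_pow_left hp k)
  rcases k with _ | k
  · simp
  · have := Nat.lt_two_pow_self (n := k)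
    rw [pow_succ]
    omega

theorem exists_field_of_comm_normal {D : Type*} {V : Type v} [Group D] [Finite D] [AddCommGroup V]
    [Finite V] [Nontrivial V] [DistribMulAction D V] [FaithfulSMul D V] (C : Subgroup D)
    [hCn : C.Normal] (hc : ∀ a ∈ C, ∀ b ∈ C, a * b = b * a) (hC : centralizer (C : Set D) ≤ C)
    (htrans : ∀ a b : V, a ≠ 0 → b ≠ 0 → ∃ d : D, d • a = b ∨ d • a = -b) :
    ∃ (F : Type v) (_ : Field F) (e : F ≃+ V), ∀ d : D, ∃ (u : F) (σ : F ≃+* F), u ≠ 0 ∧
      ∀ x, d • e x = e (u * σ x) := by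
  classical
  let ρ : D →* AddMonoid.End V := DistribMulAction.toAddMonoidEnd D V
  have hρ : ∀ (d : D) (x : V), ρ d x = d • x := fun _ _ => rfl
  let R : Subring (AddMonoid.End V) := Subring.closure (ρ '' C)
  have hfin : Finite (AddMonoid.End V) := DFunLike.finite _
  have hconj : ∀ (d : D), ∀ r ∈ R, ρ d * r * ρ d⁻¹ ∈ R := by
    intro d r hr
    induction hr using Subring.closure_induction with
    | mem x hx =>
      obtain ⟨c, hc, rfl⟩ := hx
      exact Subring.subset_closure ⟨_, hCn.conj_mem c hc d, by simp [map_mul]⟩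
    | zero => simp
    | one => simp [← map_mul]
    | add x y _ _ hx hy => simpa [mul_add, add_mul] using R.add_mem hx hy
    | neg x _ hx => simpa using R.neg_mem hx
    | mul x y _ _ hx hy =>
      have := R.mul_mem hx hy
      have e : ρ d * x * ρ d⁻¹ * (ρ d * y * ρ d⁻¹) = ρ d * (x * y) * ρ d⁻¹ := by
        simp only [mul_assoc]
        rw [← mul_assoc (ρ d⁻¹), ← map_mul, inv_mul_cancel, map_one, one_mul]
      rwa [e] at this
  letI : CommRing R := Subring.closureCommRingOfComm (by
    rintro _ ⟨a, ha, rfl⟩ _ ⟨b, hb, rfl⟩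
    rw [← map_mul, ← map_mul, hc a ha b hb])
  have hρ1 : ∀ d : D, ρ d * ρ d⁻¹ = 1 := fun d => by rw [← map_mul, mul_inv_cancel, map_one]
  have hρ2 : ∀ d : D, ρ d⁻¹ * ρ d = 1 := fun d => by rw [← map_mul, inv_mul_cancel, map_one]
  let τ₀ : D → (R ≃+* R) := fun d =>
    { toFun := fun r => ⟨ρ d * r * ρ d⁻¹, hconj d r r.2⟩
      invFun := fun r => ⟨ρ d⁻¹ * r * ρ d⁻¹⁻¹, hconj d⁻¹ r r.2⟩
      left_inv := fun r => Subtype.ext (by
        simp only [inv_inv, mul_assoc, hρ2, mul_one]
        rw [← mul_assoc, hρ2, one_mul])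
      right_inv := fun r => Subtype.ext (by
        simp only [inv_inv, mul_assoc, hρ1, mul_one]
        rw [← mul_assoc, hρ1, one_mul])
      map_mul' := fun r s => Subtype.ext (by
        change ρ d * (r * s) * ρ d⁻¹ = ρ d * r * ρ d⁻¹ * (ρ d * s * ρ d⁻¹)
        simp only [mul_assoc]
        rw [← mul_assoc (ρ d⁻¹), hρ2, one_mul])
      map_add' := fun r s => Subtype.ext (by
        change ρ d * (r + s) * ρ d⁻¹ = ρ d * r * ρ d⁻¹ + ρ d * s * ρ d⁻¹
        rw [mul_add, add_mul]) }
  let τ : D →* RingAut R :=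
    { toFun := τ₀
      map_one' := by ext r; simp [τ₀]
      map_mul' := fun a b => by
        ext r : 2
        change ρ (a * b) * r * ρ (a * b)⁻¹ = ρ a * (ρ b * r * ρ b⁻¹) * ρ a⁻¹
        simp only [mul_inv_rev, map_mul, mul_assoc] }
  have hτ : ∀ (d : D) (r : R) (x : V), d • (r : AddMonoid.End V) x = (τ d r : R).1 (d • x) := by
    intro d r x
    change _ = d • (r : AddMonoid.End V) (d⁻¹ • d • x)
    rw [inv_smul_smul]
  let ev : V → (R →+ V) := fun b =>
    { toFun := fun r => (r : AddMonoid.End V) b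
      map_zero' := rfl
      map_add' := fun _ _ => rfl }
  have hev : ∀ b (r : R), ev b r = (r : AddMonoid.End V) b := fun _ _ => rfl
  have hcard : ∀ a b : V, a ≠ 0 → b ≠ 0 → Nat.card (ev a).range ≤ Nat.card (ev b).range := by
    intro a b ha hb
    obtain ⟨d, hd⟩ := htrans a b ha hb
    refine Nat.card_le_card_of_injective (fun x => ⟨d • x.1, ?_⟩) fun x y h => ?_
    · obtain ⟨_, r, rfl⟩ := x
      change d • (r : AddMonoid.End V) a ∈ _
      rcases hd with hd | hd
      · exact ⟨τ d r, by rw [hev, hτ, hd]⟩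
      · exact ⟨-τ d r, by rw [map_neg, hev, hτ, hd, map_neg]⟩
    · exact Subtype.ext (MulAction.injective d (congrArg Subtype.val h))
  have hsub : ∀ a c : V, c ∈ (ev a).range → (ev c).range ≤ (ev a).range := by
    rintro a _ ⟨r, rfl⟩ _ ⟨s, rfl⟩
    exact ⟨s * r, rfl⟩
  have hself : ∀ a : V, a ∈ (ev a).range := fun a => ⟨1, rfl⟩
  have hmin : ∀ a c : V, a ≠ 0 → c ≠ 0 → c ∈ (ev a).range → (ev c).range = (ev a).range :=
    fun a c ha hc h => AddSubgroup.eq_of_le_of_card_ge (hsub a c h) (hcard a c ha hc)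
  have hfree : ∀ (r : R) (a : V), a ≠ 0 → (r : AddMonoid.End V) a = 0 → r = 0 := by
    intro r a ha hra
    by_contra hr
    obtain ⟨b, hb⟩ : ∃ b, (r : AddMonoid.End V) b ≠ 0 := by
      by_contra h
      push Not at h
      exact hr (Subtype.ext (AddMonoidHom.ext h))
    have hb0 : b ≠ 0 := by rintro rfl; exact hb (map_zero _)
    have hab : a ∉ (ev b).range := by
      intro h
      obtain ⟨s, hs⟩ := (hmin b a hb0 ha h).ge (hself b)
      apply hb
      rw [← hs, hev]
      change ((r * s : R) : AddMonoid.End V) a = 0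
      rw [mul_comm]
      change (s : AddMonoid.End V) ((r : AddMonoid.End V) a) = 0
      rw [hra, map_zero]
    have hab0 : a + b ≠ 0 := fun h => hab (by
      rw [eq_neg_of_add_eq_zero_left h]
      exact neg_mem (hself b))
    have h1 := hmin (a + b) _ hab0 hb ⟨r, by rw [hev, map_add, hra, zero_add]⟩
    have h2 := hmin b _ hb0 hb ⟨r, rfl⟩
    have h3 := (h1.symm.trans h2).le (hself _)
    exact hab (by simpa using sub_mem h3 (hself b))
  obtain ⟨a₀, ha₀⟩ := exists_ne (0 : V)
  have hinj : ∀ a, a ≠ 0 → Function.Injective (ev a) := fun a ha =>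
    (injective_iff_map_eq_zero _).2 fun r hr => hfree r a ha hr
  haveI : Nontrivial R := ⟨⟨1, 0, fun h => ha₀ (by
    have := congrArg (ev a₀) h
    rwa [map_zero] at this)⟩⟩
  haveI : NoZeroDivisors R := ⟨fun {r s} h => by
    by_contra hne
    push Not at hne
    refine hne.1 (hfree r ((s : AddMonoid.End V) a₀) (fun e => hne.2 (hfree s a₀ ha₀ e)) ?_)
    change ((r * s : R) : AddMonoid.End V) a₀ = 0
    rw [h]
    rfl⟩
  haveI : IsDomain R := NoZeroDivisors.to_isDomain R
  letI : Field R := (Finite.isField_of_domain R).toField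
  have hsurj : Function.Surjective (ev a₀) := by
    by_contra hns
    obtain ⟨b, hb⟩ : ∃ b, b ∉ (ev a₀).range := by
      by_contra h
      push Not at h
      exact hns h
    have hb0 : b ≠ 0 := by rintro rfl; exact hb (zero_mem _)
    have h1 : Nat.card R * Nat.card R ≤ Nat.card V := by
      rw [← Nat.card_prod]
      refine Nat.card_le_card_of_injective ((ev a₀).coprod (ev b))
        ((injective_iff_map_eq_zero _).2 ?_)
      rintro ⟨r, s⟩ h
      have h' : ev a₀ r + ev b s = 0 := h
      by_cases hs : ev b s = 0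
      · rw [hs, add_zero] at h'
        exact Prod.ext (hfree r a₀ ha₀ h') (hfree s b hb0 hs)
      · exfalso
        have h2 := hmin b _ hb0 hs ⟨s, rfl⟩
        have h3 := hmin a₀ _ ha₀ hs ⟨-r, by rw [map_neg]; exact neg_eq_of_add_eq_zero_right h'⟩
        exact hb ((h2.symm.trans h3).le (hself b))
    have h2 : Nat.card V ≤ 2 * Nat.card D + 1 := by
      have : Function.Surjective (fun x : Option (Bool × D) =>
          x.elim (0 : V) fun y => if y.1 then y.2 • a₀ else -(y.2 • a₀)) := by
        intro c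
        by_cases hc : c = 0
        · exact ⟨none, hc.symm⟩
        · obtain ⟨d, hd | hd⟩ := htrans a₀ c ha₀ hc
          · exact ⟨some (true, d), hd⟩
          · exact ⟨some (false, d), by simp [hd]⟩
      have := Nat.card_le_card_of_surjective _ this
      simpa [Finite.card_option, Nat.card_prod] using this
    obtain ⟨p, hp⟩ := CharP.exists R
    haveI := Fintype.ofFinite R
    obtain ⟨k, hpp, hk⟩ := FiniteField.card R p
    haveI := Fact.mk hpp
    rw [← Nat.card_eq_fintype_card] at hk
    haveI : Finite (RingAut R) := DFunLike.finite (R ≃+* R)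
    have h3 : Nat.card τ.range ≤ k :=
      (Nat.card_le_card_of_injective _ τ.range.subtype_injective).trans (H20.card_ringAut_le hk)
    have h4 : τ.ker ≤ C := by
      intro d hd
      refine hC fun c hc => eq_of_smul_eq_smul (α := V) fun x => ?_
      have := hτ d ⟨ρ c, Subring.subset_closure ⟨c, hc, rfl⟩⟩ x
      rw [MonoidHom.mem_ker.1 hd] at this
      rw [mul_smul, mul_smul]
      exact this.symm
    have h5 : Nat.card C + 1 ≤ Nat.card R := by
      rw [← Finite.card_option]
      refine Nat.card_le_card_of_injective (fun x : Option C =>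
        x.elim (0 : R) fun c => ⟨ρ c, Subring.subset_closure ⟨c, c.2, rfl⟩⟩) ?_
      have hne : ∀ c : C, (⟨ρ c, Subring.subset_closure ⟨c, c.2, rfl⟩⟩ : R) ≠ 0 := fun c h =>
        (smul_ne_zero_iff_ne (c : D)).2 ha₀ (by
          have := congrArg (ev a₀) h
          rwa [map_zero] at this)
      rintro (_ | c) (_ | c') h
      · rfl
      · exact absurd h.symm (hne c')
      · exact absurd h (hne c)
      · refine congrArg some (Subtype.ext (eq_of_smul_eq_smul (α := V) fun x => ?_))
        exact congrArg (ev x) h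
    have h6 : Nat.card D = Nat.card τ.ker * Nat.card τ.range := by
      rw [← τ.ker.card_mul_index, Subgroup.index_ker]
    have h7 := card_le_of_le h4
    have h8 := two_mul_le_pow (k := k) hpp.two_le
    rw [← hk] at h8
    have h9 : Nat.card D ≤ Nat.card C * k := h6 ▸ Nat.mul_le_mul h7 h3
    have h10 : 1 < Nat.card R := Finite.one_lt_card
    nlinarith
  refine ⟨R, inferInstance, AddEquiv.ofBijective (ev a₀) ⟨hinj a₀ ha₀, hsurj⟩, fun d => ?_⟩
  obtain ⟨u, hu⟩ := hsurj (d • a₀)
  refine ⟨u, τ d, ?_, fun x => ?_⟩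
  · rintro rfl
    exact (smul_ne_zero_iff_ne d).2 ha₀ (hu.symm.trans (map_zero _))
  · change d • (x : AddMonoid.End V) a₀ = ((u * τ d x : R) : AddMonoid.End V) a₀
    rw [hτ, ← hu, mul_comm]
    rfl

theorem isCyclic_fitting_of_halfTrans {D E : Type*} [Group D] [Finite D]
    [AddCommGroup E] [Finite E] [DistribMulAction D E] [FaithfulSMul D E]
    (hodd : Odd (Nat.card D)) {q : ℕ} (hq : q.Prime) (hE : ∀ e : E, q • e = 0)
    (htrans : ∀ a b : E, a ≠ 0 → b ≠ 0 → ∃ d : D, d • a = b ∨ d • a = -b) :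
    IsCyclic (Cfsg.fittingSubgroup D) := by
  have key : ∀ (p : ℕ) [Fact p.Prime], IsCyclic (Cfsg.pCore p D) := by
    intro p hp
    by_cases hp2 : p = 2
    · subst hp2
      have : Subsingleton (Cfsg.pCore 2 D) := by
        obtain ⟨k, hk⟩ := IsPGroup.iff_card.1 (H1.isPGroup_pCore (p := 2) (G := D))
        have h1 : Odd (2 ^ k) := hk ▸ hodd.of_dvd_nat (Subgroup.card_subgroup_dvd_card _)
        rcases k with _ | k
        · exact (Nat.card_eq_one_iff_unique.1 hk).1
        · exact absurd h1 (Nat.not_odd_iff_even.2 (Nat.even_pow.2 ⟨even_two, by omega⟩))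
      infer_instance
    refine (H26.Suz.cyclic_fpf_of_const_stab hp2 H1.isPGroup_pCore hq hE (fun a b ha hb => ?_)).1
    obtain ⟨d, hd⟩ := htrans a b ha hb
    have e : stabilizer (Cfsg.pCore p D) b = stabilizer (Cfsg.pCore p D) (d • a) := by
      rcases hd with rfl | hd
      · rfl
      · ext g
        simp [hd, mem_stabilizer_iff]
    rw [e]
    refine Nat.card_congr ⟨fun g => ⟨MulAut.conjNormal d g.1, ?_⟩,
      fun g => ⟨MulAut.conjNormal d⁻¹ g.1, ?_⟩, fun g => by simp, fun g => by simp⟩
    · show (d * g.1 * d⁻¹) • d • a = d • a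
      rw [mul_smul, inv_smul_smul, mul_smul, show (g.1 : D) • a = a from g.2]
    · show (d⁻¹ * g.1 * d⁻¹⁻¹) • a = a
      rw [inv_inv, mul_smul, mul_smul, show (g.1 : D) • d • a = d • a from g.2, inv_smul_smul]
  haveI : IsZGroup (Cfsg.fittingSubgroup D) := ⟨fun p hp P => by
    haveI := Fact.mk hp
    haveI := key p
    have h1 := H1.le_pCore_of_le_fitting (P.isPGroup'.map (Cfsg.fittingSubgroup D).subtype)
      (Subgroup.map_subtype_le _)
    exact isCyclic_of_injective ((Subgroup.inclusion h1).comp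
      (Subgroup.equivMapOfInjective _ _ (Subgroup.subtype_injective _)).toMonoidHom)
      ((Subgroup.inclusion_injective h1).comp (MulEquiv.injective _))⟩
  exact H1.isCyclic_of_isCyclic_abelianization_of_isNilpotent IsZGroup.isCyclic_abelianization

theorem exists_field_of_halfTrans {D : Type*} {V : Type v} [Group D] [Finite D] [Group.IsSolvable D]
    [AddCommGroup V] [Finite V] [Nontrivial V] [DistribMulAction D V] [FaithfulSMul D V]
    (hodd : Odd (Nat.card D)) {q : ℕ} (hq : q.Prime) (hE : ∀ e : V, q • e = 0)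
    (htrans : ∀ a b : V, a ≠ 0 → b ≠ 0 → ∃ d : D, d • a = b ∨ d • a = -b) :
    ∃ (F : Type v) (_ : Field F) (e : F ≃+ V), ∀ d : D, ∃ (u : F) (σ : F ≃+* F), u ≠ 0 ∧
      ∀ x, d • e x = e (u * σ x) := by
  have hc := isCyclic_fitting_of_halfTrans hodd hq hE htrans
  refine exists_field_of_comm_normal (Cfsg.fittingSubgroup D) (fun a ha b hb => ?_)
    H1.centralizer_fitting_le htrans
  letI := hc.commGroup
  exact congrArg Subtype.val (mul_comm (⟨a, ha⟩ : Cfsg.fittingSubgroup D) ⟨b, hb⟩)

end H4
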